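import Mathlib
import Cfsg.Agent.S0684
import Cfsg.Agent.Lib.Helper77.NF3.Defs
import Cfsg.Agent.Lib.Helper5.Pres120

set_option autoImplicit false

/-!
# NF3 (core of S0689), package [NO3] (helper1)
-/

universe u

namespace Cfsg.Agent.Lib.Helper1.NF3

open Cfsg.Agent.Lib.Helper77.NF3

theorem pkgNo3 (hCen : Nat.card (Subgroup.center SL25) = 2) : PkgNo3.{u} := by
  intro p _ V _ _ _ H hreg N hN h3
  obtain ⟨e⟩ := hN
  classical
  have hfinGL : Finite (V ≃ₗ[ZMod p] V) := Cfsg.Agent.S0684.finite_linEquiv
  have : Fact (Nat.Prime 3) := ⟨by norm_num⟩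
  obtain ⟨c, hc⟩ := exists_prime_orderOf_dvd_card' 3 h3
  have hNcard : Nat.card N = 120 := by
    rw [Nat.card_congr e.toEquiv]; exact Cfsg.Agent.Lib.Helper5.Pres120.card_SL2_five
  obtain ⟨x, hx⟩ := exists_prime_orderOf_dvd_card' (G := N) 3 (by rw [hNcard]; norm_num)
  -- `V` is nontrivial
  have hVnt : Nontrivial V := by
    by_contra hnt
    rw [not_nontrivial_iff_subsingleton] at hnt
    have hx1 : x = 1 := by
      apply Subtype.ext; apply Subtype.ext
      apply LinearEquiv.ext; intro v; exact Subsingleton.elim _ _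
    rw [hx1, orderOf_one] at hx
    norm_num at hx
  have hcH : orderOf ((c : H)) = 3 := by rw [Subgroup.orderOf_coe]; exact hc
  have hxH : orderOf ((x : H)) = 3 := by rw [Subgroup.orderOf_coe]; exact hx
  have hcx : (c : H) * (x : H) = (x : H) * (c : H) :=
    (Subgroup.mem_centralizer_iff.1 c.2 (x : H) x.2).symm
  let A : Subgroup H := Subgroup.closure {(c : H), (x : H)}
  have hAc : IsMulCommutative A := by
    have hcomm : ∀ a ∈ ({(c : H), (x : H)} : Set H), ∀ b ∈ ({(c : H), (x : H)} : Set H),
        a * b = b * a := by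
      intro a ha b hb
      rcases ha with rfl | rfl <;> rcases hb with rfl | rfl
      · rfl
      · exact hcx
      · exact hcx.symm
      · rfl
    exact Subgroup.isMulCommutative_closure hcomm
  have hsemi : ∀ a : A, ∀ v : V, v ≠ 0 → ((a : H) : V ≃ₗ[ZMod p] V) v = v → a = 1 := by
    intro a v hv hfix
    exact Subtype.ext (Cfsg.Agent.S0684.semireg H hreg a v hv hfix)
  have hcyc : IsCyclic A := Cfsg.Agent.S0684.cyclic_of_semireg H A hAc hsemi
  let c' : A := ⟨(c : H), Subgroup.subset_closure (by simp)⟩
  let x' : A := ⟨(x : H), Subgroup.subset_closure (by simp)⟩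
  have hc' : orderOf c' = 3 := by rw [← Subgroup.orderOf_coe]; exact hcH
  have hx' : orderOf x' = 3 := by rw [← Subgroup.orderOf_coe]; exact hxH
  have key : x' = c' ∨ x' = c' ^ 2 := by
    by_contra hcon
    rw [not_or] at hcon
    have : Fintype A := Fintype.ofFinite A
    have hle := IsCyclic.card_pow_eq_one_le (α := A) (n := 3) (by norm_num)
    have hc1 : c' ≠ 1 := by intro h; rw [h, orderOf_one] at hc'; norm_num at hc'
    have hc3 : c' ^ 3 = 1 := by rw [← hc']; exact pow_orderOf_eq_one c'
    have hx3 : x' ^ 3 = 1 := by rw [← hx']; exact pow_orderOf_eq_one x'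
    have hx1 : x' ≠ 1 := by intro h; rw [h, orderOf_one] at hx'; norm_num at hx'
    have hc2 : c' ^ 2 ≠ 1 := by
      intro h
      have h2 : orderOf c' ∣ 2 := orderOf_dvd_of_pow_eq_one h
      rw [hc'] at h2; norm_num at h2
    have hcc2 : c' ≠ c' ^ 2 := by
      intro h
      apply hc1
      have h2 : c' * 1 = c' * c' := by rw [mul_one, ← pow_two]; exact h
      exact (mul_left_cancel h2).symm
    have hsub : ({1, c', c' ^ 2, x'} : Finset A) ⊆
        Finset.univ.filter (fun a : A => a ^ 3 = 1) := by
      intro a ha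
      simp only [Finset.mem_insert, Finset.mem_singleton] at ha
      simp only [Finset.mem_filter, Finset.mem_univ, true_and]
      rcases ha with rfl | rfl | rfl | rfl
      · simp
      · exact hc3
      · rw [← pow_mul, mul_comm, pow_mul, hc3, one_pow]
      · exact hx3
    have hcard : ({1, c', c' ^ 2, x'} : Finset A).card = 4 := by
      rw [Finset.card_insert_of_notMem, Finset.card_insert_of_notMem, Finset.card_pair]
      · exact fun h => hcon.2 h.symm
      · simp only [Finset.mem_insert, Finset.mem_singleton, not_or]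
        exact ⟨hcc2, fun h => hcon.1 h.symm⟩
      · simp only [Finset.mem_insert, Finset.mem_singleton, not_or]
        exact ⟨fun h => hc1 h.symm, fun h => hc2 h.symm, fun h => hx1 h.symm⟩
    have h4 := Finset.card_le_card hsub
    omega
  have hxC : (x : H) ∈ Subgroup.centralizer (N : Set H) := by
    rcases key with h | h
    · have h2 : (x : H) = (c : H) := congrArg Subtype.val h
      rw [h2]; exact c.2
    · have h2 : (x : H) = (c : H) ^ 2 := congrArg Subtype.val h
      rw [h2]; exact Subgroup.pow_mem _ c.2 2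
  have hcen : e x ∈ Subgroup.center SL25 := by
    rw [Subgroup.mem_center_iff]
    intro y
    have h1 := Subgroup.mem_centralizer_iff.1 hxC ((e.symm y : N) : H) (e.symm y).2
    have h2 : e.symm y * x = x * e.symm y := Subtype.ext h1
    have h3 := congrArg e h2
    rw [map_mul, map_mul, MulEquiv.apply_symm_apply] at h3
    exact h3
  have ho : orderOf (⟨e x, hcen⟩ : Subgroup.center SL25) = 3 := by
    rw [← Subgroup.orderOf_coe]
    show orderOf (e x) = 3
    rw [MulEquiv.orderOf_eq]; exact hx
  have hdvd : orderOf (⟨e x, hcen⟩ : Subgroup.center SL25) ∣ Nat.card (Subgroup.center SL25) :=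
    orderOf_dvd_natCard _
  rw [ho, hCen] at hdvd
  norm_num at hdvd

end Cfsg.Agent.Lib.Helper1.NF3
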